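import Cfsg.Agent.S1463
import Cfsg.Agent.S3771
import Cfsg.Agent.Metacyclic.Basic
import Cfsg.Agent.PLocalBasics.AutRankTwo

/-!
Odd groups of automorphisms of a `p`-group of rank at most two, `p` odd: the derived group is a `p`-group.
-/

set_option autoImplicit false
set_option linter.style.haveILetI false

namespace CfsgLib.RankTwoAut

open scoped commutatorElement MatrixGroups
open CfsgLib.H29.Dickson

variable {p : ℕ} [hp : Fact p.Prime] {X : Type*} [Group X] [Finite X]

/-- In an odd linear group of degree two over the prime field, derived elements have order dividing `p`. -/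
theorem pow_eq_one_GL (hX : Odd (Nat.card X)) (f : X →* GL (Fin 2) (ZMod p)) {m : X}
    (hm : m ∈ commutator X) : f m ^ p = 1 := by
  let K := AlgebraicClosure (ZMod p)
  haveI : CharP K p := charP_of_injective_algebraMap (algebraMap (ZMod p) K).injective p
  let g : X →* GL (Fin 2) K := (Matrix.GeneralLinearGroup.map (algebraMap (ZMod p) K)).comp f
  haveI : Finite (pr.comp g).range := Finite.of_surjective _ (pr.comp g).rangeRestrict_surjective
  obtain ⟨x, hx⟩ := Cfsg.Agent.S1463.exists_fixed_of_odd p (pr.comp g).range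
    (hX.of_dvd_nat (Subgroup.card_range_dvd _))
  set w : Fin 2 → K := ![(Cfsg.Agent.S1463.lineVec x).1, (Cfsg.Agent.S1463.lineVec x).2] with hw
  have hw0 : w ≠ 0 := fun h => Cfsg.Agent.S1463.lineVec_ne x
    (Prod.ext (by simpa [hw] using congrFun h 0) (by simpa [hw] using congrFun h 1))
  have heig : ∀ a : X, ∃ μ : K, (g a : Matrix (Fin 2) (Fin 2) K).mulVec w = μ • w := by
    intro a
    obtain ⟨μ, h1, h2⟩ := Cfsg.Agent.S1463.eigen_of_fix (g a) x (hx _ ⟨a, rfl⟩)
    refine ⟨μ, funext fun i => ?_⟩
    fin_cases i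
    · simpa [hw, Matrix.mulVec, dotProduct, Fin.sum_univ_two] using h1
    · simpa [hw, Matrix.mulVec, dotProduct, Fin.sum_univ_two] using h2
  let S : Subgroup X :=
    { carrier := {a | (g a : Matrix (Fin 2) (Fin 2) K).mulVec w = w ∧ Matrix.det (g a : Matrix (Fin 2) (Fin 2) K) = 1}
      one_mem' := ⟨by rw [map_one, Units.val_one, Matrix.one_mulVec], by rw [map_one, Units.val_one, Matrix.det_one]⟩
      mul_mem' := by
        rintro a b ⟨ha, ha'⟩ ⟨hb, hb'⟩
        refine ⟨?_, ?_⟩
        · rw [map_mul, Units.val_mul, ← Matrix.mulVec_mulVec, hb, ha]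
        · rw [map_mul, Units.val_mul, Matrix.det_mul, ha', hb', one_mul]
      inv_mem' := by
        rintro a ⟨ha, ha'⟩
        refine ⟨?_, ?_⟩
        · conv_lhs => rw [← ha]
          rw [Matrix.mulVec_mulVec, map_inv, ← Units.val_mul, inv_mul_cancel, Units.val_one, Matrix.one_mulVec]
        · have h : Matrix.det (g a⁻¹ : Matrix (Fin 2) (Fin 2) K) * Matrix.det (g a : Matrix (Fin 2) (Fin 2) K) = 1 := by
            rw [← Matrix.det_mul, ← Units.val_mul, ← map_mul, inv_mul_cancel, map_one, Units.val_one, Matrix.det_one]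
          rwa [ha', mul_one] at h }
  have hS : commutator X ≤ S := by
    rw [commutator_def, Subgroup.commutator_le]
    intro a _ b _
    obtain ⟨α, hα⟩ := heig a
    obtain ⟨β, hβ⟩ := heig b
    have hab : (g (a * b) : Matrix (Fin 2) (Fin 2) K).mulVec w = (g (b * a) : Matrix (Fin 2) (Fin 2) K).mulVec w := by
      rw [map_mul, map_mul, Units.val_mul, Units.val_mul, ← Matrix.mulVec_mulVec, ← Matrix.mulVec_mulVec,
        hβ, hα, Matrix.mulVec_smul, Matrix.mulVec_smul, hα, hβ, smul_comm]
    have e : ⁅a, b⁆ * (b * a) = a * b := by rw [commutatorElement_def]; group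
    refine ⟨?_, ?_⟩
    · obtain ⟨γ, hγ⟩ := heig (b * a)
      have hγ0 : γ ≠ 0 := by
        rintro rfl
        apply hw0
        have := congrArg (((g (b * a))⁻¹ : GL (Fin 2) K) : Matrix (Fin 2) (Fin 2) K).mulVec hγ
        rwa [Matrix.mulVec_mulVec, ← Units.val_mul, inv_mul_cancel, Units.val_one, Matrix.one_mulVec,
          zero_smul, Matrix.mulVec_zero] at this
      have h : (g ⁅a, b⁆ : Matrix (Fin 2) (Fin 2) K).mulVec (γ • w) = γ • w := by
        rw [← hγ, Matrix.mulVec_mulVec, ← Units.val_mul, ← map_mul, e, hab]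
      rw [Matrix.mulVec_smul] at h
      exact smul_right_injective _ hγ0 h
    · have h : Matrix.det (g (⁅a, b⁆ * (b * a)) : Matrix (Fin 2) (Fin 2) K) =
          Matrix.det (g (a * b) : Matrix (Fin 2) (Fin 2) K) := by rw [e]
      simp only [map_mul, Units.val_mul, Matrix.det_mul] at h
      have hne : Matrix.det (g b : Matrix (Fin 2) (Fin 2) K) * Matrix.det (g a : Matrix (Fin 2) (Fin 2) K) ≠ 0 :=
        mul_ne_zero (Matrix.GeneralLinearGroup.det_ne_zero _) (Matrix.GeneralLinearGroup.det_ne_zero _)
      exact mul_right_cancel₀ hne (by rw [h]; ring)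
  obtain ⟨hfix, hdet⟩ := hS hm
  set M : Matrix (Fin 2) (Fin 2) K := (g m : Matrix (Fin 2) (Fin 2) K) with hM
  have hN : Matrix.det (M - 1) = 0 := Matrix.exists_mulVec_eq_zero_iff.1
    ⟨w, hw0, by rw [Matrix.sub_mulVec, hfix, Matrix.one_mulVec, sub_self]⟩
  rw [Matrix.det_fin_two] at hN hdet
  simp only [Matrix.sub_apply, Matrix.one_apply_eq, Matrix.one_apply_ne (show (0 : Fin 2) ≠ 1 by decide),
    Matrix.one_apply_ne (show (1 : Fin 2) ≠ 0 by decide), sub_zero] at hN
  have htr : M 0 0 + M 1 1 = 2 := by linear_combination hdet - hN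
  have hsq : (M - 1) * (M - 1) = 0 := by
    ext i j
    fin_cases i <;> fin_cases j <;> simp [Matrix.mul_apply, Fin.sum_univ_two]
    · linear_combination (M 0 0) * htr - hdet
    · linear_combination (M 0 1) * htr
    · linear_combination (M 1 0) * htr
    · linear_combination (M 1 1) * htr - hdet
  have hMp : M ^ p = 1 := by
    have h := sub_pow_char_pow_of_commute p 1 (Commute.one_right M)
    rw [pow_one, one_pow] at h
    have h0 : (M - 1) ^ p = 0 := pow_eq_zero_of_le hp.out.two_le (by rw [pow_two, hsq])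
    rw [h0, eq_comm, sub_eq_zero] at h
    exact h
  apply Units.ext
  refine Matrix.map_injective (algebraMap (ZMod p) K).injective ?_
  have : ((g m ^ p : GL (Fin 2) K) : Matrix (Fin 2) (Fin 2) K) = 1 := by rw [Units.val_pow_eq_pow_val, ← hM, hMp]
  rw [show g m ^ p = Matrix.GeneralLinearGroup.map (algebraMap (ZMod p) K) (f m ^ p) from
    (map_pow (Matrix.GeneralLinearGroup.map (algebraMap (ZMod p) K)) (f m) p).symm] at this
  show Matrix.map _ _ = Matrix.map _ _
  rw [Units.val_one, Matrix.map_one _ (map_zero _) (map_one _)]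
  exact this

/-- Derived elements of an odd group acting on an elementary abelian group of order at most `p ^ 2`. -/
theorem pow_eq_one_plane {V : Type*} [CommGroup V] [Finite V] (hexp : ∀ v : V, v ^ p = 1)
    (hcard : Nat.card V ≤ p ^ 2) (hX : Odd (Nat.card X)) (f : X →* MulAut V) {m : X}
    (hm : m ∈ commutator X) : f m ^ p = 1 := by
  have hV : IsPGroup p V := fun v => ⟨1, by rw [pow_one]; exact hexp v⟩
  obtain ⟨k, hk⟩ := hV.exists_card_eq
  rw [hk, Nat.pow_le_pow_iff_right hp.out.one_lt] at hcard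
  rcases Nat.lt_or_ge k 2 with h | h
  · -- cyclic: commutative automorphism group
    haveI : IsCyclic V := by
      interval_cases k
      · rw [pow_zero] at hk
        haveI := (Nat.card_eq_one_iff_unique.1 hk).1
        infer_instance
      · exact isCyclic_of_prime_card (p := p) (by rw [hk, pow_one])
    have hc : ∀ a b : MulAut V, a * b = b * a := fun a b =>
      (IsCyclic.mulAutMulEquiv V).injective (by rw [map_mul, map_mul, mul_comm])
    have h1 : commutator X ≤ f.ker := by
      rw [commutator_def, Subgroup.commutator_le]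
      intro a _ b _
      rw [MonoidHom.mem_ker, map_commutatorElement, commutatorElement_eq_one_iff_mul_comm]
      exact hc _ _
    rw [MonoidHom.mem_ker.1 (h1 hm), one_pow]
  · obtain rfl : k = 2 := by omega
    have hz : ∀ v : Additive V, p • v = 0 := fun v => Additive.toMul.injective (by simpa using hexp v.toMul)
    letI : Module (ZMod p) (Additive V) := AddCommGroup.zmodModule (n := p) hz
    haveI : Module.Finite (ZMod p) (Additive V) := Module.Finite.of_finite
    have hr : Module.finrank (ZMod p) (Additive V) = 2 := by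
      have h2 : Nat.card (Additive V) = Nat.card (ZMod p) ^ Module.finrank (ZMod p) (Additive V) :=
        Module.natCard_eq_pow_finrank
      rw [Nat.card_congr Additive.toMul, hk, Nat.card_zmod] at h2
      exact (Nat.pow_right_injective hp.out.two_le h2).symm
    let b : Module.Basis (Fin 2) (ZMod p) (Additive V) := Module.finBasisOfFinrankEq (ZMod p) (Additive V) hr
    let add : MulAut V → (Additive V →+ Additive V) := fun φ =>
      { toFun := fun v => Additive.ofMul (φ v.toMul)
        map_zero' := by simp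
        map_add' := fun v w => by simp }
    let lin : MulAut V →* Module.End (ZMod p) (Additive V) :=
      { toFun := fun φ => (add φ).toZModLinearMap p
        map_one' := LinearMap.ext fun v => by simp [add]
        map_mul' := fun φ ψ => LinearMap.ext fun v => by simp [add] }
    let rep : MulAut V →* GL (Fin 2) (ZMod p) :=
      MonoidHom.toHomUnits ((LinearMap.toMatrixAlgEquiv b).toRingEquiv.toMulEquiv.toMonoidHom.comp lin)
    have hrep : Function.Injective rep := by
      intro φ ψ h
      have h' := (LinearMap.toMatrixAlgEquiv b).injective (congrArg Units.val h)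
      exact MulEquiv.ext fun v => Additive.ofMul.injective (LinearMap.congr_fun h' (Additive.ofMul v))
    have h1 := pow_eq_one_GL hX (rep.comp f) hm
    rw [MonoidHom.comp_apply, ← map_pow] at h1
    exact hrep (h1.trans (map_one rep).symm)

/-- The restriction of automorphisms to an invariant subgroup. -/
def restrictHom {G : Type*} [Group G] (f : X →* MulAut G) (K : Subgroup G) (hK : ∀ x, ∀ g ∈ K, f x g ∈ K) :
    X →* MulAut K where
  toFun x :=
    { toFun := fun g => ⟨f x g, hK x g g.2⟩
      invFun := fun g => ⟨f x⁻¹ g, hK x⁻¹ g g.2⟩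
      left_inv := fun g => Subtype.ext (by simp [map_inv])
      right_inv := fun g => Subtype.ext (by simp [map_inv])
      map_mul' := fun a b => Subtype.ext (map_mul (f x) (a : G) b) }
  map_one' := MulEquiv.ext fun g => Subtype.ext (by simp)
  map_mul' x y := MulEquiv.ext fun g => Subtype.ext (by simp [map_mul])

theorem restrictHom_coe {G : Type*} [Group G] (f : X →* MulAut G) (K : Subgroup G)
    (hK : ∀ x, ∀ g ∈ K, f x g ∈ K) (x : X) (g : K) : ((restrictHom f K hK x g : K) : G) = f x g := rfl

/-- Derived elements of an odd group acting on a class two group of exponent `p` and rank at most two. -/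
theorem pow_eq_one_small {G : Type*} [Group G] [Finite G] (hexp : ∀ x : G, x ^ p = 1)
    (h2 : ∀ a b : G, ⁅a, b⁆ ∈ Subgroup.center G)
    (hrk : ∀ A : Subgroup G, IsMulCommutative A → Nat.card A ≤ p ^ 2)
    (hX : Odd (Nat.card X)) (f : X →* MulAut G) {m : X} (hm : m ∈ commutator X) :
    f m ^ (p * p) = 1 := by
  have hG : IsPGroup p G := fun v => ⟨1, by rw [pow_one]; exact hexp v⟩
  set Z := Subgroup.center G with hZ
  have hZinv : ∀ x, ∀ g ∈ Z, f x g ∈ Z := fun x g hg =>
    Subgroup.characteristic_iff_map_le.1 (inferInstance : (Subgroup.center G).Characteristic) (f x) ⟨g, hg, rfl⟩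
  have hZc : Nat.card Z ≤ p ^ 2 := hrk Z ⟨⟨fun a b => Subtype.ext (Subgroup.mem_center_iff.1 b.2 a)⟩⟩
  letI : CommGroup Z := { (inferInstance : Group Z) with
    mul_comm := fun a b => Subtype.ext (Subgroup.mem_center_iff.1 b.2 a) }
  have hfixZ : ∀ z ∈ Z, (f m ^ p) z = z := by
    intro z hz
    have h := pow_eq_one_plane (V := Z) (fun v => Subtype.ext (hexp _)) hZc hX (restrictHom f Z hZinv) hm
    rw [← map_pow] at h
    have := congrArg Subtype.val (DFunLike.congr_fun h ⟨z, hz⟩)
    rwa [restrictHom_coe, map_pow, MulAut.one_apply] at this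
  have hqc : Nat.card (G ⧸ Z) ≤ p ^ 2 := by
    by_cases hab : Z = ⊤
    · rw [← Subgroup.index_eq_card, hab, Subgroup.index_top]
      exact Nat.one_le_pow _ _ hp.out.pos
    · have hcard : Nat.card G ≤ p ^ 3 :=
        Cfsg.Agent.S3771.result hG (fun A hA _ => hrk A hA) hexp
      haveI : Nontrivial G := by
        by_contra hn
        rw [not_nontrivial_iff_subsingleton] at hn
        exact hab (Subgroup.eq_top_iff' _ |>.2 fun x => by rw [Subsingleton.elim x 1]; exact one_mem _)
      haveI := hG.center_nontrivial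
      have hZp : p ≤ Nat.card Z := by
        obtain ⟨k, hk⟩ := (hG.to_subgroup Z).exists_card_eq
        have h1 : 1 < Nat.card Z := Finite.one_lt_card
        rw [hk] at h1 ⊢
        exact Nat.le_self_pow (fun h0 => by simp [h0] at h1) p
      rw [Subgroup.card_eq_card_quotient_mul_card_subgroup Z] at hcard
      refine Nat.le_of_mul_le_mul_right ?_ hp.out.pos
      calc Nat.card (G ⧸ Z) * p ≤ Nat.card (G ⧸ Z) * Nat.card Z := Nat.mul_le_mul_left _ hZp
        _ ≤ p ^ 3 := hcard
        _ = p ^ 2 * p := by rw [pow_succ]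
  have hmap : ∀ x, Z.map (f x).toMonoidHom = Z := fun x =>
    Subgroup.characteristic_iff_map_eq.1 inferInstance (f x)
  let fq : X →* MulAut (G ⧸ Z) :=
    { toFun := fun x => QuotientGroup.congr Z Z (f x) (hmap x)
      map_one' := MulEquiv.ext fun q => by
        obtain ⟨g, rfl⟩ := QuotientGroup.mk_surjective q
        simp
      map_mul' := fun x y => MulEquiv.ext fun q => by
        obtain ⟨g, rfl⟩ := QuotientGroup.mk_surjective q
        rw [MulAut.mul_apply]
        show ((f (x * y) g : G) : G ⧸ Z) = ((f x (f y g) : G) : G ⧸ Z)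
        rw [map_mul, MulAut.mul_apply] }
  letI : CommGroup (G ⧸ Z) := { (inferInstance : Group (G ⧸ Z)) with
    mul_comm := fun a b => by
      obtain ⟨a, rfl⟩ := QuotientGroup.mk_surjective a
      obtain ⟨b, rfl⟩ := QuotientGroup.mk_surjective b
      rw [← QuotientGroup.mk_mul, ← QuotientGroup.mk_mul, QuotientGroup.eq]
      have h := h2 b⁻¹ a⁻¹
      rw [commutatorElement_def, inv_inv, inv_inv] at h
      rwa [mul_inv_rev, ← mul_assoc] }
  have hfixQ : ∀ g : G, g⁻¹ * (f m ^ p) g ∈ Z := by
    intro g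
    have h := pow_eq_one_plane (V := G ⧸ Z) (fun v => by
      obtain ⟨v, rfl⟩ := QuotientGroup.mk_surjective v
      rw [← QuotientGroup.mk_pow, hexp, QuotientGroup.mk_one]) hqc hX fq hm
    rw [← map_pow] at h
    have h' := DFunLike.congr_fun h (g : G ⧸ Z)
    rw [MulAut.one_apply] at h'
    have h'' : ((f (m ^ p) g : G) : G ⧸ Z) = (g : G ⧸ Z) := h'
    rw [map_pow] at h''
    exact QuotientGroup.eq.1 h''.symm
  rw [pow_mul]
  refine MulEquiv.ext fun g => ?_
  set σ := f m ^ p
  have hpow : ∀ n : ℕ, (σ ^ n) g = g * (g⁻¹ * σ g) ^ n := by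
    intro n
    induction n with
    | zero => simp
    | succ k ih =>
      rw [pow_succ', MulAut.mul_apply, ih, map_mul, map_pow, hfixZ _ (hfixQ g), pow_succ']
      simp [mul_assoc]
  rw [hpow, hexp, mul_one, MulAut.one_apply]

/-- An automorphism with `p`-power order on every small invariant subgroup has `p`-power order. -/
theorem exists_pow_eq_one_of_omega (hp2 : p ≠ 2) {R : Type*} [Group R] [Finite R] (hR : IsPGroup p R)
    (f : X →* MulAut R) (m : X)
    (hsmall : ∀ W : Subgroup R, W.Normal → (∀ x, ∀ g ∈ W, f x g ∈ W) → (∀ w ∈ W, w ^ p = 1) →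
      (∀ a ∈ W, ∀ b ∈ W, ∀ c ∈ W, ⁅a, b⁆ * c = c * ⁅a, b⁆) → ∃ k : ℕ, ∀ w ∈ W, (f m ^ p ^ k) w = w) :
    ∃ n : ℕ, f m ^ p ^ n = 1 := by
  obtain ⟨H, hH⟩ := CfsgLib.PGroup.exists_critical (p := p) hR ⊤ fun _ => Subgroup.mem_top _
  haveI hHn : H.Normal :=
    ⟨fun x hx g => by simpa using hH.invariant _ (Subgroup.mem_top (MulAut.conj g)) x hx⟩
  have h2 : ∀ a b : H, ⁅a, b⁆ ∈ Subgroup.center H := fun a b => by
    have := hH.commutator_le (Subgroup.commutator_mem_commutator a.2 (Subgroup.mem_top (b : R)))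
    exact Subgroup.mem_center_iff.2 fun g => Subtype.ext (Subgroup.mem_centralizer_iff.1 this.2 g g.2)
  have hpz : ∀ x g : H, Commute (x ^ p) g := fun x g => Subtype.ext (by
    simpa using (Subgroup.mem_centralizer_iff.1 (hH.pow_mem x x.2) g g.2).symm)
  have hcp : ∀ x y : H, ⁅y, x⁆ ^ p = 1 := fun x y => by
    rw [← CfsgLib.PGroup.commutator_pow_right h2, commutatorElement_eq_one_iff_mul_comm]
    exact (hpz x y).symm.eq
  have hpow : ∀ x y : H, (x * y) ^ p = x ^ p * y ^ p := fun x y => by
    obtain ⟨k, hk⟩ := CfsgLib.PGroup.dvd_choose_two (p := p) hp2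
    rw [CfsgLib.PGroup.mul_pow_central (h2 y x), hk, pow_mul, hcp, one_pow, mul_one]
  have hHinv : ∀ x, ∀ g ∈ H, f x g ∈ H := fun x g hg => hH.invariant _ (Subgroup.mem_top (f x)) g hg
  let fH := restrictHom f H hHinv
  set W := CfsgLib.PGroup.omegaSubgroup (p := p) hp2 h2 with hW
  have hWinv : ∀ x, ∀ g ∈ W, fH x g ∈ W := fun x g (hg : g ^ p = 1) =>
    show (fH x g) ^ p = 1 by rw [← map_pow, hg, map_one]
  have hWn : (W.map H.subtype).Normal := ⟨by
    rintro _ ⟨w, hw, rfl⟩ x
    refine ⟨⟨_, hHn.conj_mem _ w.2 x⟩, ?_, rfl⟩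
    exact Subtype.ext (by
      show (x * (w : R) * x⁻¹) ^ p = 1
      rw [conj_pow, ← Subgroup.coe_pow, show w ^ p = 1 from hw, Subgroup.coe_one, mul_one, mul_inv_cancel])⟩
  obtain ⟨k, hsm⟩ := hsmall (W.map H.subtype) hWn
    (by
      rintro x _ ⟨g, hg, rfl⟩
      exact ⟨fH x g, hWinv x g hg, rfl⟩)
    (by
      rintro _ ⟨w, hw, rfl⟩
      exact congrArg Subtype.val (show w ^ p = 1 from hw))
    (by
      rintro _ ⟨a, -, rfl⟩ _ ⟨b, -, rfl⟩ _ ⟨c, -, rfl⟩
      exact (congrArg Subtype.val (Subgroup.mem_center_iff.1 (h2 a b) c)).symm)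
  set y := m ^ p ^ k with hy
  obtain ⟨s, t, ht, hst⟩ := Nat.exists_eq_pow_mul_and_not_dvd (orderOf_pos y).ne' p hp.out.ne_one
  set z := y ^ p ^ s with hz
  have hzo : (orderOf z).Coprime p := by
    have h1 : z ^ t = 1 := by rw [hz, ← pow_mul, ← hst, pow_orderOf_eq_one]
    exact ((hp.out.coprime_iff_not_dvd.2 ht).symm).coprime_dvd_left (orderOf_dvd_of_pow_eq_one h1)
  have hzW : ∀ w : H, w ^ p = 1 → fH z w = w := by
    intro w hw
    have h1 : ∀ n : ℕ, ((f m ^ p ^ k) ^ n) (w : R) = w := by
      intro n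
      induction n with
      | zero => simp
      | succ i ih => rw [pow_succ, MulAut.mul_apply, show (f m ^ p ^ k) (w : R) = w from hsm _ ⟨w, hw, rfl⟩]; exact ih
    refine Subtype.ext ?_
    rw [restrictHom_coe, hz, map_pow, hy, map_pow]
    exact h1 _
  have hzH : fH z = 1 := CfsgLib.PLocalBasics.exists_moved_of_class_two (hR.to_subgroup H) hpow
    (hzo.coprime_dvd_left (orderOf_map_dvd _ _)) hzW
  have hzR : f z = 1 := CfsgLib.PGroup.eq_one_of_fixes_selfCentralizing hR hH.centralizer_le
    (hzo.coprime_dvd_left (orderOf_map_dvd _ _)) fun x hx => by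
      have := congrArg Subtype.val (DFunLike.congr_fun hzH ⟨x, hx⟩)
      rwa [restrictHom_coe, MulAut.one_apply] at this
  refine ⟨k + s, ?_⟩
  rw [← map_pow, pow_add, pow_mul, ← hy, ← hz, hzR]

/-- Derived elements of an odd group of automorphisms have `p`-power order. -/
theorem exists_pow_eq_one (hp2 : p ≠ 2) {R : Type*} [Group R] [Finite R] (hR : IsPGroup p R)
    (hrk : ∀ A : Subgroup R, IsMulCommutative A → (∀ a ∈ A, a ^ p = 1) → Nat.card A ≤ p ^ 2)
    (hX : Odd (Nat.card X)) (f : X →* MulAut R) {m : X} (hm : m ∈ commutator X) :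
    ∃ n : ℕ, f m ^ p ^ n = 1 := by
  refine exists_pow_eq_one_of_omega hp2 hR f m fun W _ hinv hexp hcl => ⟨2, fun w hw => ?_⟩
  have h := pow_eq_one_small (G := W) (fun x => Subtype.ext (hexp x x.2))
    (fun a b => Subgroup.mem_center_iff.2 fun g => Subtype.ext (hcl a a.2 b b.2 g g.2).symm)
    (fun A hA => by
      haveI := hA
      refine le_of_eq_of_le (Subgroup.card_map_of_injective W.subtype_injective).symm
        (hrk (A.map W.subtype) inferInstance ?_)
      rintro _ ⟨x, -, rfl⟩
      exact hexp x x.2)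
    hX (restrictHom f W hinv) hm
  rw [← map_pow] at h
  have h' := congrArg Subtype.val (DFunLike.congr_fun h ⟨w, hw⟩)
  rw [restrictHom_coe, MulAut.one_apply, map_pow] at h'
  rw [pow_two]
  exact h'

/-- An automorphism acting as a `p`-element on every plane section has `p`-power order. -/
theorem exists_pow_eq_one_planes.{uR} (hp2 : p ≠ 2) {R : Type uR} [Group R] [Finite R] (hR : IsPGroup p R) (e : R)
    (he : ∀ B : Subgroup R, (∀ b ∈ B, b ^ p = 1 ∧ b * e = e * b) → Nat.card B ≤ p ^ 2)
    (f : X →* MulAut R) {m : X}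
    (hplane : ∀ (V : Type uR) [CommGroup V] [Finite V], (∀ v : V, v ^ p = 1) → Nat.card V ≤ p ^ 2 →
      ∀ g : X →* MulAut V, g m ^ p = 1) :
    ∃ n : ℕ, f m ^ p ^ n = 1 := by
  refine exists_pow_eq_one_of_omega hp2 hR f m fun W hWnorm hinv hexp _ => ?_
  haveI hWn' : ∀ i : ℕ, (Subgroup.upperCentralSeries R i).Normal := fun i => inferInstance
  -- the series `W ⊓ Z_i`
  have step : ∀ i : ℕ, ∃ k : ℕ, ∀ w ∈ W ⊓ Subgroup.upperCentralSeries R i, (f m ^ p ^ k) w = w := by
    intro i
    induction i with
    | zero =>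
      refine ⟨0, fun w hw => ?_⟩
      obtain rfl : w = 1 := by simpa [Subgroup.upperCentralSeries_zero] using hw.2
      exact map_one _
    | succ i ih =>
      obtain ⟨k, hk⟩ := ih
      set M := W ⊓ Subgroup.upperCentralSeries R (i + 1) with hM
      set N := W ⊓ Subgroup.upperCentralSeries R i with hN
      have hNM : N ≤ M := inf_le_inf_left _ (Subgroup.upperCentralSeries_mono R (Nat.le_succ i))
      have hinvi : ∀ (j : ℕ) (x : X), ∀ g ∈ W ⊓ Subgroup.upperCentralSeries R j,
          f x g ∈ W ⊓ Subgroup.upperCentralSeries R j := fun j x g hg => ⟨hinv x g hg.1,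
        Subgroup.characteristic_iff_map_le.1 (inferInstance : (Subgroup.upperCentralSeries R j).Characteristic)
          (f x) ⟨g, hg.2, rfl⟩⟩
      let fM := restrictHom f M (hinvi (i + 1))
      set N' := N.subgroupOf M with hN'
      haveI hN'n : N'.Normal := ⟨fun a ha g => by
        rw [Subgroup.mem_subgroupOf] at ha ⊢
        refine ⟨W.mul_mem (W.mul_mem g.2.1 ha.1) (W.inv_mem g.2.1), ?_⟩
        exact (hWn' i).conj_mem _ ha.2 _⟩
      have hcomm : ∀ a ∈ M, ∀ b ∈ W, ⁅a, b⁆ ∈ N := fun a ha b hb => by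
        refine ⟨?_, Subgroup.mem_upperCentralSeries_succ_iff.1 ha.2 b⟩
        rw [commutatorElement_def]
        exact W.mul_mem (W.mul_mem (W.mul_mem ha.1 hb) (W.inv_mem ha.1)) (W.inv_mem hb)
      have hcard : Nat.card (M ⧸ N') ≤ p ^ 2 := by
        let Ce := Subgroup.centralizer ({e} : Set R)
        let NR := Subgroup.closure {c : R | ∃ a ∈ M, c = ⁅a, e⁆}
        by_cases heW : ∀ a ∈ M, ⁅a, e⁆ ∈ N
        · have h1 := CfsgLib.Metacyclic.Data.relIndex_centralizer_le e M N heW
          have h2 := Subgroup.relIndex_mul_relIndex (⊥ : Subgroup R) _ M bot_le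
            (inf_le_left : M ⊓ Ce ≤ M)
          rw [Subgroup.relIndex_bot_left, Subgroup.relIndex_bot_left, Subgroup.inf_relIndex_left] at h2
          have h3 := he (M ⊓ Ce) fun b hb =>
            ⟨hexp b hb.1.1, Subgroup.mem_centralizer_singleton_iff.1 hb.2⟩
          have h4 : Nat.card M ≤ p ^ 2 * Nat.card N := h2 ▸ Nat.mul_le_mul h3 h1
          rw [Subgroup.card_eq_card_quotient_mul_card_subgroup N', hN',
            Nat.card_congr (Subgroup.subgroupOfEquivOfLe hNM).toEquiv] at h4
          exact Nat.le_of_mul_le_mul_right h4 Nat.card_pos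
        · push Not at heW
          obtain ⟨a, ha, hae⟩ := heW
          exfalso
          refine hae ⟨?_, Subgroup.mem_upperCentralSeries_succ_iff.1 ha.2 e⟩
          have hWn : ∀ x : R, ∀ g ∈ W, x * g * x⁻¹ ∈ W := fun x g hg => hWnorm.conj_mem g hg x
          rw [commutatorElement_def, show a * e * a⁻¹ * e⁻¹ = a * (e * a⁻¹ * e⁻¹) by group]
          exact W.mul_mem ha.1 (hWn e _ (W.inv_mem ha.1))
      letI : CommGroup (M ⧸ N') := { (inferInstance : Group (M ⧸ N')) with
        mul_comm := fun a b => by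
          obtain ⟨a, rfl⟩ := QuotientGroup.mk_surjective a
          obtain ⟨b, rfl⟩ := QuotientGroup.mk_surjective b
          rw [← QuotientGroup.mk_mul, ← QuotientGroup.mk_mul, QuotientGroup.eq, hN', Subgroup.mem_subgroupOf]
          have h := hcomm _ (M.inv_mem b.2) (a : R)⁻¹ (W.inv_mem a.2.1)
          rw [commutatorElement_def, inv_inv, inv_inv] at h
          simpa [mul_assoc] using h }
      have hmap : ∀ x, N'.map (fM x).toMonoidHom = N' := by
        intro x
        refine le_antisymm ?_ fun a ha => ⟨fM x⁻¹ a, ?_, by simp [map_inv]⟩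
        · rintro _ ⟨a, ha, rfl⟩
          exact hinvi i x _ ha
        · exact hinvi i x⁻¹ _ ha
      let fq : X →* MulAut (M ⧸ N') :=
        { toFun := fun x => QuotientGroup.congr N' N' (fM x) (hmap x)
          map_one' := MulEquiv.ext fun q => by
            obtain ⟨g, rfl⟩ := QuotientGroup.mk_surjective q
            simp
          map_mul' := fun x y => MulEquiv.ext fun q => by
            obtain ⟨g, rfl⟩ := QuotientGroup.mk_surjective q
            rw [MulAut.mul_apply]
            show ((fM (x * y) g : M) : M ⧸ N') = ((fM x (fM y g) : M) : M ⧸ N')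
            rw [map_mul, MulAut.mul_apply] }
      have hq := hplane (M ⧸ N') (fun v => by
        obtain ⟨v, rfl⟩ := QuotientGroup.mk_surjective v
        rw [← QuotientGroup.mk_pow, ← QuotientGroup.mk_one]
        exact congrArg QuotientGroup.mk (Subtype.ext (hexp v v.2.1))) hcard fq
      rw [← map_pow] at hq
      have hstep : ∀ w ∈ M, w⁻¹ * (f m ^ p) w ∈ N := by
        intro w hw
        have h' := DFunLike.congr_fun hq ((⟨w, hw⟩ : M) : M ⧸ N')
        rw [MulAut.one_apply] at h'
        have h'' : ((fM (m ^ p) ⟨w, hw⟩ : M) : M ⧸ N') = ((⟨w, hw⟩ : M) : M ⧸ N') := h'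
        have h3 := QuotientGroup.eq.1 h''.symm
        rw [hN', Subgroup.mem_subgroupOf, Subgroup.coe_mul, Subgroup.coe_inv, restrictHom_coe, map_pow] at h3
        exact h3
      refine ⟨k + 2, fun w hw => ?_⟩
      -- `τ` fixes `N` and moves `M` inside cosets of `N`
      have hfixN : ∀ c ∈ N, ∀ j : ℕ, ((f m ^ p ^ k) ^ j) c = c := by
        intro c hc j
        induction j with
        | zero => simp
        | succ j ih => rw [pow_succ, MulAut.mul_apply, hk c hc, ih]
      set τ := f m ^ p ^ (k + 1) with hτ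
      have hτN : ∀ c ∈ N, τ c = c := fun c hc => by
        rw [hτ, pow_succ, pow_mul]; exact hfixN c hc p
      have hτM : ∀ j : ℕ, ∀ w ∈ M, w⁻¹ * ((f m ^ p) ^ j) w ∈ N := by
        intro j
        induction j with
        | zero => intro w _; simp
        | succ j ih =>
          intro w hw
          rw [pow_succ, MulAut.mul_apply]
          have h1 := hstep w hw
          have h2 := ih _ (hNM h1)
          have h3 := N.mul_mem (N.mul_mem h1 h2) (N.one_mem)
          have h4 : w⁻¹ * ((f m ^ p) ^ j) ((f m ^ p) w) = (w⁻¹ * ((f m ^ p) ^ j) w) * ((f m ^ p) ^ j) (w⁻¹ * (f m ^ p) w) := by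
            rw [map_mul, map_inv]; group
          rw [h4]
          refine N.mul_mem (ih w hw) ?_
          have h5 := N.mul_mem h1 h2
          rwa [mul_inv_cancel_left] at h5
      have hc : w⁻¹ * τ w ∈ N := by
        have := hτM (p ^ k) w hw
        rwa [← pow_mul, ← pow_succ'] at this
      have hpow : ∀ j : ℕ, (τ ^ j) w = w * (w⁻¹ * τ w) ^ j := by
        intro j
        induction j with
        | zero => simp
        | succ j ih =>
          rw [pow_succ', MulAut.mul_apply, ih, map_mul, map_pow, hτN _ hc, pow_succ']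
          simp [mul_assoc]
      have := hpow p
      rw [hexp _ hc.1, mul_one, hτ, ← pow_mul, ← pow_succ] at this
      exact this
  haveI := hR.isNilpotent
  obtain ⟨k, hk⟩ := step (Group.nilpotencyClass R)
  refine ⟨k, fun w hw => hk w ⟨hw, ?_⟩⟩
  rw [Subgroup.upperCentralSeries_nilpotencyClass]
  trivial

/-- An odd group acting on a `p`-group: if the fixed points of some element on elements of order `p` are few,
derived elements have `p`-power order. -/
theorem exists_pow_eq_one_few (hp2 : p ≠ 2) {R : Type*} [Group R] [Finite R] (hR : IsPGroup p R) (e : R)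
    (he : ∀ B : Subgroup R, (∀ b ∈ B, b ^ p = 1 ∧ b * e = e * b) → Nat.card B ≤ p ^ 2)
    (hX : Odd (Nat.card X)) (f : X →* MulAut R) {m : X} (hm : m ∈ commutator X) :
    ∃ n : ℕ, f m ^ p ^ n = 1 := by
  exact exists_pow_eq_one_planes hp2 hR e he f fun V _ _ hexp hcard g => pow_eq_one_plane hexp hcard hX g hm

/-- The primes other than `p` dividing the automorphism group are less than `p`. -/
theorem prime_lt_few (hp2 : p ≠ 2) {R : Type*} [Group R] [Finite R] (hR : IsPGroup p R) (e : R)
    (he : ∀ B : Subgroup R, (∀ b ∈ B, b ^ p = 1 ∧ b * e = e * b) → Nat.card B ≤ p ^ 2)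
    {q : ℕ} (hq : q.Prime) (hqp : q ≠ p) (hdvd : q ∣ Nat.card (MulAut R)) : q < p := by
  haveI := Fact.mk hq
  obtain ⟨σ, hσ⟩ := exists_prime_orderOf_dvd_card' q hdvd
  by_contra hlt
  let f : Subgroup.zpowers σ →* MulAut R := (Subgroup.zpowers σ).subtype
  have hm : (⟨σ, Subgroup.mem_zpowers σ⟩ : Subgroup.zpowers σ) ^ q = 1 :=
    Subtype.ext (by rw [SubmonoidClass.coe_pow, ← hσ, pow_orderOf_eq_one]; rfl)
  obtain ⟨n, hn⟩ := exists_pow_eq_one_planes hp2 hR e he f (m := ⟨σ, Subgroup.mem_zpowers σ⟩)
    fun V _ _ hexp hcard g => by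
      set τ := g ⟨σ, Subgroup.mem_zpowers σ⟩
      have hτq : τ ^ q = 1 := by rw [← map_pow, hm, map_one]
      have hτ : τ = 1 := by
        by_contra hne
        have hV : IsPGroup p V := fun v => ⟨1, by rw [pow_one]; exact hexp v⟩
        have hd := CfsgLib.PLocalBasics.dvd_sq_sub_one_of_small hV hcard hq hqp hτq (by
          by_contra hh
          push Not at hh
          exact hne (MulEquiv.ext hh))
        rw [show p ^ 2 - 1 = (p + 1) * (p - 1) by rw [← Nat.sq_sub_sq, one_pow]] at hd
        have h2 := hp.out.two_le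
        rcases hq.dvd_mul.1 hd with h | h
        · have h3 := Nat.le_of_dvd (by omega) h
          have : q = p + 1 := by omega
          obtain ⟨r, hr⟩ := hp.out.odd_of_ne_two hp2
          rcases hq.eq_two_or_odd' with h5 | ⟨s, hs⟩ <;> omega
        · have h3 := Nat.le_of_dvd (by omega) h
          omega
      rw [hτ, one_pow]
  have h1 : orderOf σ ∣ p ^ n := orderOf_dvd_of_pow_eq_one hn
  rw [hσ] at h1
  exact hqp ((Nat.prime_dvd_prime_iff_eq hq hp.out).1 (hq.dvd_of_dvd_pow h1))

end CfsgLib.RankTwoAut
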