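import Cfsg.Agent.RankTwoAut.Basic
import Cfsg.Agent.OddFitting.Small
import Cfsg.Agent.NormalEl.Basic

/-!
Operators on a `p`-group of rank at least three with few fixed points on elements of order `p`.
-/

set_option autoImplicit false
set_option linter.style.haveILetI false

namespace CfsgLib.RankTwoAut

open scoped commutatorElement

variable {p : ℕ} [hp : Fact p.Prime] {R : Type*} [Group R] [Finite R]

/-- A subgroup avoiding `e` of elements of order `p` commuting with `e` has order at most `p`. -/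
theorem card_le_of_not_mem (hR : IsPGroup p R) {e : R} (hep : e ^ p = 1)
    (he : ∀ B : Subgroup R, (∀ b ∈ B, b ^ p = 1 ∧ b * e = e * b) → Nat.card B ≤ p ^ 2)
    (S : Subgroup R) (hS : ∀ b ∈ S, b ^ p = 1 ∧ b * e = e * b) (heS : e ∉ S) : Nat.card S ≤ p := by
  obtain ⟨k, hk⟩ := (hR.to_subgroup S).exists_card_eq
  have hnorm : Subgroup.zpowers e ≤ Subgroup.normalizer (S : Set R) := by
    rw [Subgroup.zpowers_le, Subgroup.mem_normalizer_iff]
    intro y
    constructor
    · intro hy
      rwa [← (hS y hy).2, mul_inv_cancel_right]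
    · intro hy
      have h := (hS _ hy).2
      rw [inv_mul_cancel_right] at h
      have h2 : e * y * e⁻¹ = y := (mul_left_cancel h).symm
      rwa [h2] at hy
  have hlt : S < S ⊔ Subgroup.zpowers e := lt_of_le_of_ne le_sup_left fun h =>
    heS (h ▸ (le_sup_right : Subgroup.zpowers e ≤ _) (Subgroup.mem_zpowers e))
  have h1 := CfsgLib.NormalEl.pow_succ_le_card hR hlt hk
  have h2 := he (S ⊔ Subgroup.zpowers e) fun b hb => by
    have hb' : b ∈ ((S ⊔ Subgroup.zpowers e : Subgroup R) : Set R) := hb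
    rw [Subgroup.coe_mul_of_right_le_normalizer_left S _ hnorm] at hb'
    obtain ⟨s, hs, _, ⟨i, rfl⟩, rfl⟩ := hb'
    obtain ⟨hsp, hse⟩ := hS s hs
    refine ⟨?_, (Commute.mul_left (show Commute s e from hse) ((Commute.refl e).zpow_left i)).eq⟩
    show (s * e ^ i) ^ p = 1
    rw [((show Commute s e from hse).zpow_right i).mul_pow, hsp, one_mul, ← zpow_natCast, ← zpow_mul, mul_comm,
      zpow_mul, zpow_natCast, hep, one_zpow]
  have h3 := h1.trans h2
  rw [Nat.pow_le_pow_iff_right hp.out.one_lt] at h3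
  rw [hk]
  calc p ^ k ≤ p ^ 1 := Nat.pow_le_pow_right hp.out.pos (by omega)
    _ = p := pow_one p

omit hp in
/-- Counting along the commutators with `e`. -/
theorem card_le_inf_centralizer (e : R) (M D : Subgroup R) (h : ∀ x ∈ M, ⁅x, e⁆ ∈ D) :
    Nat.card M ≤ Nat.card (M ⊓ Subgroup.centralizer ({e} : Set R) : Subgroup R) * Nat.card D := by
  have h1 := CfsgLib.Metacyclic.Data.relIndex_centralizer_le e M D h
  have h2 := Subgroup.relIndex_mul_relIndex (⊥ : Subgroup R) _ M bot_le
    (inf_le_left : M ⊓ Subgroup.centralizer ({e} : Set R) ≤ M)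
  rw [Subgroup.relIndex_bot_left, Subgroup.relIndex_bot_left, Subgroup.inf_relIndex_left] at h2
  exact h2 ▸ Nat.mul_le_mul_left _ h1

/-- In rank at least three an element with few fixed points has more than `p` conjugates. -/
theorem exists_commutator_not_mem (hR : IsPGroup p R) {e : R} (hep : e ^ p = 1)
    (he : ∀ B : Subgroup R, (∀ b ∈ B, b ^ p = 1 ∧ b * e = e * b) → Nat.card B ≤ p ^ 2)
    (hrk : ¬ Cfsg.PRankLE p 2 R) (D : Subgroup R) (hD : Nat.card D ≤ p) : ∃ g : R, ⁅g, e⁆ ∉ D := by
  by_contra hc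
  push Not at hc
  refine hrk fun B hB hBp => ?_
  haveI := hB
  by_cases heB : e ∈ B
  · exact he B fun b hb => ⟨hBp b hb, Subgroup.mul_comm_of_mem_isMulCommutative B hb heB⟩
  refine (card_le_inf_centralizer e B D fun x _ => hc x).trans ?_
  rw [pow_two]
  exact Nat.mul_le_mul (card_le_of_not_mem hR hep he _ (fun b hb =>
    ⟨hBp b hb.1, Subgroup.mem_centralizer_singleton_iff.1 hb.2⟩) fun h => heB h.1) hD

/-- The factors of the central series on a small characteristic subgroup have order at most `p`. -/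
theorem card_factor_le (hR : IsPGroup p R) {e : R} (hep : e ^ p = 1)
    (he : ∀ B : Subgroup R, (∀ b ∈ B, b ^ p = 1 ∧ b * e = e * b) → Nat.card B ≤ p ^ 2)
    (hrk : ¬ Cfsg.PRankLE p 2 R) {W : Subgroup R} (hWn : W.Normal) (hexp : ∀ w ∈ W, w ^ p = 1)
    (hcl : ∀ a ∈ W, ∀ b ∈ W, ∀ c ∈ W, ⁅a, b⁆ * c = c * ⁅a, b⁆) (i : ℕ) :
    Nat.card (W ⊓ Subgroup.upperCentralSeries R (i + 1) : Subgroup R) ≤
      p * Nat.card (W ⊓ Subgroup.upperCentralSeries R i : Subgroup R) := by
  set M := W ⊓ Subgroup.upperCentralSeries R (i + 1) with hM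
  set N := W ⊓ Subgroup.upperCentralSeries R i with hN
  have hMN : ∀ a ∈ M, ∀ x : R, ⁅a, x⁆ ∈ N := fun a ha x => by
    refine ⟨?_, Subgroup.mem_upperCentralSeries_succ_iff.1 ha.2 x⟩
    rw [commutatorElement_def, show a * x * a⁻¹ * x⁻¹ = a * (x * a⁻¹ * x⁻¹) by group]
    exact W.mul_mem ha.1 (hWn.conj_mem _ (W.inv_mem ha.1) x)
  set Ce := Subgroup.centralizer ({e} : Set R) with hCe
  by_cases heM : e ∈ M
  · have heW : e ∈ W := heM.1
    have hNp : p ^ 2 ≤ Nat.card N := by
      by_contra hlt
      obtain ⟨k, hk⟩ := (hR.to_subgroup N).exists_card_eq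
      rw [hk, Nat.pow_le_pow_iff_right hp.out.one_lt] at hlt
      obtain ⟨g, hg⟩ := exists_commutator_not_mem hR hep he hrk N (by
        rw [hk]
        calc p ^ k ≤ p ^ 1 := Nat.pow_le_pow_right hp.out.pos (by omega)
          _ = p := pow_one p)
      apply hg
      rw [← commutatorElement_inv]
      exact N.inv_mem (hMN e heM g)
    have hM3 : Nat.card M ≤ p ^ 3 := by
      have hMC : Nat.card (M ⊓ Ce : Subgroup R) ≤ p ^ 2 :=
        he _ fun b hb => ⟨hexp b hb.1.1, Subgroup.mem_centralizer_singleton_iff.1 hb.2⟩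
      by_cases heC : ∀ w ∈ W, w * e = e * w
      · refine le_trans (le_of_eq_of_le ?_ hMC) (Nat.pow_le_pow_right hp.out.pos (by omega))
        rw [inf_eq_left.2 fun w hw => Subgroup.mem_centralizer_singleton_iff.2 (heC w hw.1)]
      · set D := W ⊓ Subgroup.centralizer (W : Set R)
        have hD : Nat.card D ≤ p := card_le_of_not_mem hR hep he D
          (fun b hb => ⟨hexp b hb.1, (Subgroup.mem_centralizer_iff.1 hb.2 e heW).symm⟩)
          fun h => heC fun w hw => Subgroup.mem_centralizer_iff.1 h.2 w hw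
        refine (card_le_inf_centralizer e M D fun x hx => ⟨?_, ?_⟩).trans ?_
        · exact (hMN x hx e).1
        · exact Subgroup.mem_centralizer_iff.2 fun w hw => (hcl x hx.1 e heW w hw).symm
        · rw [pow_succ p 2]
          exact Nat.mul_le_mul hMC hD
    refine hM3.trans ?_
    rw [pow_succ' p 2]
    exact Nat.mul_le_mul_left _ hNp
  · refine (card_le_inf_centralizer e M N fun x hx => hMN x hx e).trans ?_
    exact Nat.mul_le_mul_right _ (card_le_of_not_mem hR hep he _
      (fun b hb => ⟨hexp b hb.1.1, Subgroup.mem_centralizer_singleton_iff.1 hb.2⟩) fun h => heM h.1)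

/-- On a cyclic section of prime order the `p - 1`-st power of every automorphism is trivial. -/
theorem pow_sub_one_eq_one {V : Type*} [Group V] [Finite V] (hV : IsPGroup p V) (hc : Nat.card V ≤ p)
    (σ : MulAut V) : σ ^ (p - 1) = 1 := by
  obtain ⟨k, hk⟩ := hV.exists_card_eq
  have hk1 : k ≤ 1 := by
    rw [hk] at hc
    exact (Nat.pow_le_pow_iff_right hp.out.one_lt).1 (by rwa [pow_one])
  haveI : IsCyclic V := by
    interval_cases k
    · rw [pow_zero] at hk
      haveI := (Nat.card_eq_one_iff_unique.1 hk).1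
      infer_instance
    · exact isCyclic_of_prime_card (p := p) (by rw [hk, pow_one])
  apply orderOf_dvd_iff_pow_eq_one.1
  refine (orderOf_dvd_natCard σ).trans ?_
  rw [IsCyclic.card_mulAut, hk]
  interval_cases k
  · simp
  · rw [pow_one, Nat.totient_prime hp.out]

/-- In rank at least three the `p - 1`-st power of an operator has `p`-power order. -/
theorem exists_pow_eq_one_rank_three (hp2 : p ≠ 2) (hR : IsPGroup p R) {e : R} (hep : e ^ p = 1)
    (he : ∀ B : Subgroup R, (∀ b ∈ B, b ^ p = 1 ∧ b * e = e * b) → Nat.card B ≤ p ^ 2)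
    (hrk : ¬ Cfsg.PRankLE p 2 R) {X : Type*} [Group X] [Finite X] (f : X →* MulAut R) (a : X) :
    ∃ n : ℕ, f (a ^ (p - 1)) ^ p ^ n = 1 := by
  refine exists_pow_eq_one_of_omega hp2 hR f (a ^ (p - 1)) fun W hWn hinv hexp hcl => ?_
  set σ := f (a ^ (p - 1)) with hσ
  haveI hZn : ∀ i : ℕ, (Subgroup.upperCentralSeries R i).Normal := fun i => inferInstance
  have step : ∀ i : ℕ, ∃ k : ℕ, ∀ w ∈ W ⊓ Subgroup.upperCentralSeries R i, (σ ^ p ^ k) w = w := by
    intro i
    induction i with
    | zero =>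
      refine ⟨0, fun w hw => ?_⟩
      obtain rfl : w = 1 := by simpa [Subgroup.upperCentralSeries_zero] using hw.2
      exact map_one _
    | succ i ih =>
      obtain ⟨k, hk⟩ := ih
      have hcard := card_factor_le hR hep he hrk hWn hexp hcl i
      set M := W ⊓ Subgroup.upperCentralSeries R (i + 1) with hM
      set N := W ⊓ Subgroup.upperCentralSeries R i with hN
      have hNM : N ≤ M := inf_le_inf_left _ (Subgroup.upperCentralSeries_mono R (Nat.le_succ i))
      have hinvi : ∀ (j : ℕ) (x : X), ∀ g ∈ W ⊓ Subgroup.upperCentralSeries R j,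
          f x g ∈ W ⊓ Subgroup.upperCentralSeries R j := fun j x g hg => ⟨hinv x g hg.1,
        Subgroup.characteristic_iff_map_le.1 (inferInstance : (Subgroup.upperCentralSeries R j).Characteristic)
          (f x) ⟨g, hg.2, rfl⟩⟩
      let fM := restrictHom f M (hinvi (i + 1))
      set N' := N.subgroupOf M with hN'
      haveI : N'.Normal := ⟨fun b hb g => by
        rw [Subgroup.mem_subgroupOf] at hb ⊢
        exact ⟨W.mul_mem (W.mul_mem g.2.1 hb.1) (W.inv_mem g.2.1), (hZn i).conj_mem _ hb.2 _⟩⟩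
      have hmap : ∀ x, N'.map (fM x).toMonoidHom = N' := by
        intro x
        refine le_antisymm ?_ fun b hb => ⟨fM x⁻¹ b, ?_, by simp [map_inv]⟩
        · rintro _ ⟨b, hb, rfl⟩
          exact hinvi i x _ hb
        · exact hinvi i x⁻¹ _ hb
      let fq : X →* MulAut (M ⧸ N') :=
        { toFun := fun x => QuotientGroup.congr N' N' (fM x) (hmap x)
          map_one' := MulEquiv.ext fun q => by
            obtain ⟨g, rfl⟩ := QuotientGroup.mk_surjective q
            simp
          map_mul' := fun x y => MulEquiv.ext fun q => by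
            obtain ⟨g, rfl⟩ := QuotientGroup.mk_surjective q
            rw [MulAut.mul_apply]
            show ((fM (x * y) g : M) : M ⧸ N') = ((fM x (fM y g) : M) : M ⧸ N')
            rw [map_mul, MulAut.mul_apply] }
      have hq : fq (a ^ (p - 1)) = 1 := by
        rw [map_pow]
        refine pow_sub_one_eq_one ((hR.to_subgroup M).to_quotient N') ?_ _
        have h4 : Nat.card M ≤ p * Nat.card N := hcard
        rw [Subgroup.card_eq_card_quotient_mul_card_subgroup N', hN',
          Nat.card_congr (Subgroup.subgroupOfEquivOfLe hNM).toEquiv] at h4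
        exact Nat.le_of_mul_le_mul_right h4 Nat.card_pos
      have hstep : ∀ w ∈ M, w⁻¹ * σ w ∈ N := by
        intro w hw
        have h' := DFunLike.congr_fun hq ((⟨w, hw⟩ : M) : M ⧸ N')
        rw [MulAut.one_apply] at h'
        have h'' : ((fM (a ^ (p - 1)) ⟨w, hw⟩ : M) : M ⧸ N') = ((⟨w, hw⟩ : M) : M ⧸ N') := h'
        have h3 := QuotientGroup.eq.1 h''.symm
        rw [hN', Subgroup.mem_subgroupOf, Subgroup.coe_mul, Subgroup.coe_inv, restrictHom_coe] at h3
        exact h3
      have hσM : ∀ j : ℕ, ∀ w ∈ M, w⁻¹ * (σ ^ j) w ∈ N := by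
        intro j
        induction j with
        | zero => intro w _; simp
        | succ j ih =>
          intro w hw
          rw [pow_succ, MulAut.mul_apply]
          have h1 := hstep w hw
          have h2 : w⁻¹ * (σ ^ j) (σ w) = (w⁻¹ * (σ ^ j) w) * (σ ^ j) (w⁻¹ * σ w) := by
            rw [map_mul, map_inv]; group
          rw [h2]
          refine N.mul_mem (ih w hw) ?_
          have h5 := N.mul_mem h1 (ih _ (hNM h1))
          rwa [mul_inv_cancel_left] at h5
      refine ⟨k + 1, fun w hw => ?_⟩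
      set τ := σ ^ p ^ k with hτ
      have hpow : ∀ j : ℕ, (τ ^ j) w = w * (w⁻¹ * τ w) ^ j := by
        intro j
        induction j with
        | zero => simp
        | succ j ih =>
          rw [pow_succ', MulAut.mul_apply, ih, map_mul, map_pow, hk _ (hσM (p ^ k) w hw), pow_succ']
          simp [hτ, mul_assoc]
      have hfin := hpow p
      rw [hexp _ (hσM (p ^ k) w hw).1, mul_one, hτ, ← pow_mul, ← pow_succ] at hfin
      exact hfin
  haveI := hR.isNilpotent
  obtain ⟨k, hk⟩ := step (Group.nilpotencyClass R)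
  refine ⟨k, fun w hw => hk w ⟨hw, ?_⟩⟩
  rw [Subgroup.upperCentralSeries_nilpotencyClass]
  trivial

/-- A narrow group of rank at least three has a noncentral element of order `p` with few fixed points. -/
theorem exists_few_of_narrow (h : Cfsg.IsNarrow p R) (hrk : ¬ Cfsg.PRankLE p 2 R) :
    ∃ e : R, e ^ p = 1 ∧ ∀ B : Subgroup R, (∀ b ∈ B, b ^ p = 1 ∧ b * e = e * b) → Nat.card B ≤ p ^ 2 := by
  obtain ⟨R₀, R₁, h0, h1, hinf, hcomm, hsup⟩ := h.resolve_left hrk
  haveI : IsCyclic R₀ := isCyclic_of_prime_card (p := p) h0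
  obtain ⟨g, hg⟩ := IsCyclic.exists_generator (α := R₀)
  refine ⟨g, ?_, fun B hB => ?_⟩
  · rw [← Subgroup.coe_pow, ← h0, pow_card_eq_one', Subgroup.coe_one]
  haveI := h1
  letI : CommGroup R₁ := IsCyclic.commGroup
  let T : Subgroup R₁ := (powMonoidHom p : R₁ →* R₁).ker
  have hT : Nat.card T ≤ p := by
    classical
    haveI := Fintype.ofFinite R₁
    have h := IsCyclic.card_pow_eq_one_le (α := R₁) hp.out.pos
    rw [Nat.card_eq_fintype_card]
    refine le_trans (le_of_eq ?_) h
    rw [← Fintype.card_subtype]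
    exact Fintype.card_congr (Equiv.subtypeEquivRight fun x => by simp [T])
  have hle : ∀ b ∈ B, ∃ a : R₀, ∃ c : T, b = (a : R) * ((c : R₁) : R) := by
    intro b hb
    obtain ⟨hbp, hbe⟩ := hB b hb
    have hbC : b ∈ Subgroup.centralizer (R₀ : Set R) := Subgroup.mem_centralizer_iff.2 fun x hx => by
      obtain ⟨m, hm⟩ := Subgroup.mem_zpowers_iff.1 (hg ⟨x, hx⟩)
      rw [← show ((g ^ m : R₀) : R) = x from congrArg Subtype.val hm, Subgroup.coe_zpow]
      exact (Commute.zpow_left (hbe.symm : Commute (g : R) b) m).eq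
    rw [← hsup] at hbC
    have hnorm : R₀ ≤ Subgroup.normalizer (R₁ : Set R) := fun a ha => Subgroup.mem_normalizer_iff.2 fun y => by
      constructor
      · intro hy
        rwa [hcomm a ha y hy, mul_inv_cancel_right]
      · intro hy
        have h := hcomm a ha _ hy
        rw [inv_mul_cancel_right, mul_left_cancel_iff] at h
        rwa [h] at hy
    have hmem : b ∈ ((R₀ ⊔ R₁ : Subgroup R) : Set R) := hbC
    rw [Subgroup.coe_mul_of_left_le_normalizer_right R₀ R₁ hnorm] at hmem
    obtain ⟨a, ha, c, hc, rfl⟩ := hmem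
    have hap : a ^ p = 1 := by
      have := congrArg Subtype.val (pow_card_eq_one' (x := (⟨a, ha⟩ : R₀)))
      rw [h0] at this
      simpa using this
    rw [Commute.mul_pow (hcomm a ha c hc), hap, one_mul] at hbp
    exact ⟨⟨a, ha⟩, ⟨⟨c, hc⟩, Subtype.ext (by simpa using hbp)⟩, rfl⟩
  choose fa fc hf using hle
  calc Nat.card B ≤ Nat.card (R₀ × T) := Nat.card_le_card_of_injective
        (fun b : B => (fa b.1 b.2, fc b.1 b.2)) (fun b b' h => Subtype.ext (by
          simp only [Prod.mk.injEq] at h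
          rw [hf b.1 b.2, hf b'.1 b'.2, h.1, h.2]))
    _ ≤ p ^ 2 := by
      rw [Nat.card_prod, h0, pow_two]
      exact Nat.mul_le_mul_left _ hT

end CfsgLib.RankTwoAut
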